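import Cfsg.Prelude.Def_SporadicCombinatorics
set_option linter.all false

/-!
The length-12 ternary code on the 4 × 3 array: explicit linear description
(six free positions `(1,2), (2,1), (2,2), (3,0), (3,1), (3,2)`), self-orthogonality, and the
description of diagonal automorphisms.
-/

set_option autoImplicit false
open Cfsg

namespace Cfsg.Agent.TernaryGolay.Core

theorem mem_tetracode_iff (t : Fin 4 → ZMod 3) :
    t ∈ tetracode ↔ ∃ a b : ZMod 3, t = ![b, a, a + b, a + 2 * b] := by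
  rw [tetracode, Submodule.mem_span_pair]
  constructor
  · rintro ⟨a, b, rfl⟩
    refine ⟨a, b, ?_⟩
    funext i
    fin_cases i <;> simp <;> ring
  · rintro ⟨a, b, rfl⟩
    refine ⟨a, b, ?_⟩
    funext i
    fin_cases i <;> simp <;> ring

theorem sum_row (f : ZMod 3 → ZMod 3) : ∑ r : ZMod 3, f r = f 0 + f 1 + f 2 := by
  exact Fin.sum_univ_three f

theorem sum_pt (f : ArrayPt → ZMod 3) : ∑ p, f p =
    (f (0, 0) + f (0, 1) + f (0, 2)) + (f (1, 0) + f (1, 1) + f (1, 2)) +
    (f (2, 0) + f (2, 1) + f (2, 2)) + (f (3, 0) + f (3, 1) + f (3, 2)) := by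
  rw [Fintype.sum_prod_type, Fin.sum_univ_four]
  simp only [sum_row]

/-- Case distinction over the twelve points. -/
theorem forall_pt {P : ArrayPt → Prop} (h : P (0, 0) ∧ P (0, 1) ∧ P (0, 2) ∧ P (1, 0) ∧ P (1, 1) ∧
    P (1, 2) ∧ P (2, 0) ∧ P (2, 1) ∧ P (2, 2) ∧ P (3, 0) ∧ P (3, 1) ∧ P (3, 2)) (p : ArrayPt) :
    P p := by
  obtain ⟨i, r⟩ := p
  obtain ⟨h00, h01, h02, h10, h11, h12, h20, h21, h22, h30, h31, h32⟩ := h
  fin_cases i <;> fin_cases r <;> assumption

/-- The linear equations of the ternary code, solved for six of the twelve positions. -/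
theorem mem_iff (x : ArrayPt → ZMod 3) : x ∈ ternaryGolayCode ↔
    x (0, 0) = 2 * x (1, 2) + 2 * x (2, 2) + 2 * x (3, 0) + 2 * x (3, 1) + x (3, 2) ∧
    x (0, 1) = 2 * x (1, 2) + x (2, 1) + x (2, 2) + x (3, 0) + x (3, 2) ∧
    x (0, 2) = 2 * x (1, 2) + 2 * x (2, 1) + x (3, 0) + 2 * x (3, 1) + 2 * x (3, 2) ∧
    x (1, 0) = x (1, 2) + x (2, 1) + 2 * x (2, 2) + x (3, 0) + 2 * x (3, 1) ∧
    x (1, 1) = x (1, 2) + 2 * x (2, 1) + x (2, 2) + 2 * x (3, 1) + x (3, 2) ∧
    x (2, 0) = 2 * x (2, 1) + 2 * x (2, 2) + x (3, 0) + x (3, 1) + x (3, 2) := by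
  change (∃ s : ZMod 3, (∀ i : Fin 4, ∑ r : ZMod 3, x (i, r) = -s) ∧
    ∀ t ∈ tetracode, ∑ i : Fin 4, x (i, t i) = s) ↔ _
  constructor
  · rintro ⟨s, hs, ht⟩
    have h0 := hs 0
    have h1 := hs 1
    have h2 := hs 2
    have h3' := hs 3
    rw [sum_row] at h0 h1 h2 h3'
    have key : ∀ a b : ZMod 3, x (0, b) + x (1, a) + x (2, a + b) + x (3, a + 2 * b) = s := by
      intro a b
      have := ht _ ((mem_tetracode_iff _).2 ⟨a, b, rfl⟩)
      rw [Fin.sum_univ_four] at this
      exact this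
    have k00 := key 0 0
    have k01 := key 0 1
    have k02 := key 0 2
    have k10 := key 1 0
    have k11 := key 1 1
    have k12 := key 1 2
    have k20 := key 2 0
    have k21 := key 2 1
    have k22 := key 2 2
    change x (0, 0) + x (1, 0) + x (2, 0) + x (3, 0) = s at k00
    change x (0, 1) + x (1, 0) + x (2, 1) + x (3, 2) = s at k01
    change x (0, 2) + x (1, 0) + x (2, 2) + x (3, 1) = s at k02
    change x (0, 0) + x (1, 1) + x (2, 1) + x (3, 1) = s at k10
    change x (0, 1) + x (1, 1) + x (2, 2) + x (3, 0) = s at k11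
    change x (0, 2) + x (1, 1) + x (2, 0) + x (3, 2) = s at k12
    change x (0, 0) + x (1, 2) + x (2, 2) + x (3, 2) = s at k20
    change x (0, 1) + x (1, 2) + x (2, 0) + x (3, 1) = s at k21
    change x (0, 2) + x (1, 2) + x (2, 1) + x (3, 0) = s at k22
    clear ht key hs
    generalize x (0, 0) = x0 at *
    generalize x (0, 1) = x1 at *
    generalize x (0, 2) = x2 at *
    generalize x (1, 0) = x3 at *
    generalize x (1, 1) = x4 at *
    generalize x (1, 2) = x5 at *
    generalize x (2, 0) = x6 at *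
    generalize x (2, 1) = x7 at *
    generalize x (2, 2) = x8 at *
    generalize x (3, 0) = x9 at *
    generalize x (3, 1) = x10 at *
    generalize x (3, 2) = x11 at *
    refine ⟨?_, ?_, ?_, ?_, ?_, ?_⟩ <;> grind
  · intro h
    have hrow : ∀ i : Fin 4, x (i, 0) + x (i, 1) + x (i, 2) =
        -(-(x (3, 0) + x (3, 1) + x (3, 2))) := by
      intro i
      fin_cases i
      · change x (0, 0) + x (0, 1) + x (0, 2) = _
        grind
      · change x (1, 0) + x (1, 1) + x (1, 2) = _
        grind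
      · change x (2, 0) + x (2, 1) + x (2, 2) = _
        grind
      · change x (3, 0) + x (3, 1) + x (3, 2) = _
        ring
    refine ⟨-(x (3, 0) + x (3, 1) + x (3, 2)), ?_, ?_⟩
    · intro i
      rw [sum_row]
      exact hrow i
    · intro t ht
      obtain ⟨a, b, rfl⟩ := (mem_tetracode_iff t).1 ht
      rw [Fin.sum_univ_four]
      change x (0, b) + x (1, a) + x (2, a + b) + x (3, a + 2 * b) = _
      fin_cases a <;> fin_cases b
      · change x (0, 0) + x (1, 0) + x (2, 0) + x (3, 0) = _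
        grind
      · change x (0, 1) + x (1, 0) + x (2, 1) + x (3, 2) = _
        grind
      · change x (0, 2) + x (1, 0) + x (2, 2) + x (3, 1) = _
        grind
      · change x (0, 0) + x (1, 1) + x (2, 1) + x (3, 1) = _
        grind
      · change x (0, 1) + x (1, 1) + x (2, 2) + x (3, 0) = _
        grind
      · change x (0, 2) + x (1, 1) + x (2, 0) + x (3, 2) = _
        grind
      · change x (0, 0) + x (1, 2) + x (2, 2) + x (3, 2) = _
        grind
      · change x (0, 1) + x (1, 2) + x (2, 0) + x (3, 1) = _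
        grind
      · change x (0, 2) + x (1, 2) + x (2, 1) + x (3, 0) = _
        grind

/-- The code is self-orthogonal. -/
theorem dot_eq_zero (x y : ArrayPt → ZMod 3) (hx : x ∈ ternaryGolayCode)
    (hy : y ∈ ternaryGolayCode) : ∑ p, x p * y p = 0 := by
  rw [sum_pt]
  obtain ⟨a0, a1, a2, a3, a4, a6⟩ := (mem_iff x).1 hx
  obtain ⟨b0, b1, b2, b3, b4, b6⟩ := (mem_iff y).1 hy
  rw [a0, a1, a2, a3, a4, a6, b0, b1, b2, b3, b4, b6]
  clear a0 a1 a2 a3 a4 a6 b0 b1 b2 b3 b4 b6
  grind

end Cfsg.Agent.TernaryGolay.Core
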