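import Cfsg.Agent.TernaryGolay.Core
set_option linter.all false

/-!
Bit masks for subsets of the 4 × 3 array (point `(i, r)` is bit `3 i + r`), the supports of the
words of the length-12 ternary code as masks, and the list of the 132 hexads.
-/

set_option autoImplicit false
open Cfsg Cfsg.Agent.TernaryGolay.Core

namespace Cfsg.Agent.TernaryGolay.Masks

/-- The bit number of a point of the array. -/
def idx (p : ArrayPt) : ℕ := 3 * p.1.val + p.2.val

/-- The point with a given bit number. -/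
def ptOf (j : Fin 12) : ArrayPt := (⟨j.1 / 3, by omega⟩, (⟨j.1 % 3, by omega⟩ : Fin 3))

theorem idx_lt (p : ArrayPt) : idx p < 12 := by
  revert p
  refine forall_pt ⟨?_, ?_, ?_, ?_, ?_, ?_, ?_, ?_, ?_, ?_, ?_, ?_⟩ <;> decide

theorem ptOf_idx (p : ArrayPt) : ptOf ⟨idx p, idx_lt p⟩ = p := by
  revert p
  refine forall_pt ⟨?_, ?_, ?_, ?_, ?_, ?_, ?_, ?_, ?_, ?_, ?_, ?_⟩ <;> rfl

theorem idx_ptOf (j : Fin 12) : idx (ptOf j) = j.1 := by
  revert j
  decide

/-- The subset with a given mask. -/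
def ofMask (m : ℕ) : Finset ArrayPt := Finset.univ.filter fun p => m.testBit (idx p) = true

theorem mem_ofMask (m : ℕ) (p : ArrayPt) : p ∈ ofMask m ↔ m.testBit (idx p) = true := by
  simp [ofMask]

/-- The mask of a subset. -/
def toMask (s : Finset ArrayPt) : ℕ := Nat.ofBits (fun j : Fin 12 => decide (ptOf j ∈ s))

theorem toMask_lt (s : Finset ArrayPt) : toMask s < 4096 :=
  Nat.ofBits_lt_two_pow _

theorem ofMask_toMask (s : Finset ArrayPt) : ofMask (toMask s) = s := by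
  ext p
  rw [mem_ofMask, toMask, Nat.testBit_ofBits_lt _ _ (idx_lt p), ptOf_idx]
  simp

theorem testBit_eq_false_of_lt {m : ℕ} (hm : m < 4096) {i : ℕ} (hi : 12 ≤ i) :
    m.testBit i = false := by
  apply Nat.testBit_lt_two_pow
  calc m < 2 ^ 12 := hm
    _ ≤ 2 ^ i := Nat.pow_le_pow_right (by norm_num) hi

theorem ofMask_subset_iff {m h : ℕ} (hm : m < 4096) : ofMask m ⊆ ofMask h ↔ m &&& h = m := by
  constructor
  · intro hs
    apply Nat.eq_of_testBit_eq
    intro i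
    rw [Nat.testBit_and]
    rcases lt_or_ge i 12 with hi | hi
    · rcases Bool.eq_false_or_eq_true (m.testBit i) with h1 | h1
      · have h2 : ptOf ⟨i, hi⟩ ∈ ofMask m := by
          rw [mem_ofMask, idx_ptOf]
          exact h1
        have h3 := hs h2
        rw [mem_ofMask, idx_ptOf] at h3
        have h3' : h.testBit i = true := h3
        rw [h1, h3']
        rfl
      · rw [h1]
        rfl
    · rw [testBit_eq_false_of_lt hm hi]
      rfl
  · intro hs p hp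
    rw [mem_ofMask] at hp ⊢
    rw [← hs, Nat.testBit_and] at hp
    simp only [Bool.and_eq_true] at hp
    exact hp.2

theorem ofMask_inj {m h : ℕ} (hm : m < 4096) (hh : h < 4096) (e : ofMask m = ofMask h) :
    m = h := by
  have h1 := (ofMask_subset_iff (m := m) (h := h) hm).1 e.subset
  have h2 := (ofMask_subset_iff (m := h) (h := m) hh).1 e.symm.subset
  rw [← h1, Nat.and_comm, h2]

/-- Number of ones among the twelve lowest bits. -/
def popc (m : ℕ) : ℕ :=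
  m % 2 + m / 2 % 2 + m / 4 % 2 + m / 8 % 2 + m / 16 % 2 + m / 32 % 2 + m / 64 % 2 +
    m / 128 % 2 + m / 256 % 2 + m / 512 % 2 + m / 1024 % 2 + m / 2048 % 2

theorem ite_testBit (m i : ℕ) : (if m.testBit i = true then 1 else 0) = m / 2 ^ i % 2 := by
  rw [Nat.testBit_eq_decide_div_mod_eq]
  rcases Nat.mod_two_eq_zero_or_one (m / 2 ^ i) with h | h <;> simp [h]

theorem sum_pt' {M : Type*} [AddCommMonoid M] (f : ArrayPt → M) : ∑ p, f p =
    (f (0, 0) + f (0, 1) + f (0, 2)) + (f (1, 0) + f (1, 1) + f (1, 2)) +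
    (f (2, 0) + f (2, 1) + f (2, 2)) + (f (3, 0) + f (3, 1) + f (3, 2)) := by
  have h : ∀ g : ZMod 3 → M, ∑ r : ZMod 3, g r = g 0 + g 1 + g 2 := fun g =>
    Fin.sum_univ_three g
  rw [Fintype.sum_prod_type, Fin.sum_univ_four]
  simp only [h]

theorem card_ofMask (m : ℕ) : (ofMask m).card = popc m := by
  rw [ofMask, Finset.card_filter, sum_pt']
  simp only [ite_testBit]
  change (m / 2 ^ 0 % 2 + m / 2 ^ 1 % 2 + m / 2 ^ 2 % 2) +
    (m / 2 ^ 3 % 2 + m / 2 ^ 4 % 2 + m / 2 ^ 5 % 2) +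
    (m / 2 ^ 6 % 2 + m / 2 ^ 7 % 2 + m / 2 ^ 8 % 2) +
    (m / 2 ^ 9 % 2 + m / 2 ^ 10 % 2 + m / 2 ^ 11 % 2) = popc m
  unfold popc
  norm_num
  ring

/-! ### Supports of codewords -/

/-- `true` iff the number is not divisible by three. -/
def sbit (n : ℕ) : Bool := !(n % 3 == 0)

theorem sbit_iff (n : ℕ) : sbit n = true ↔ (n : ZMod 3) ≠ 0 := by
  rw [Ne, ZMod.natCast_eq_zero_iff, Nat.dvd_iff_mod_eq_zero]
  simp [sbit]

/-- The support mask of the codeword with given values at the free positions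
`(1,2), (2,1), (2,2), (3,0), (3,1), (3,2)`. -/
def suppMask (A B C D E F : ℕ) : ℕ :=
  Nat.bit (sbit (2 * A + 2 * C + 2 * D + 2 * E + F)) <|
  Nat.bit (sbit (2 * A + B + C + D + F)) <|
  Nat.bit (sbit (2 * A + 2 * B + D + 2 * E + 2 * F)) <|
  Nat.bit (sbit (A + B + 2 * C + D + 2 * E)) <|
  Nat.bit (sbit (A + 2 * B + C + 2 * E + F)) <|
  Nat.bit (sbit A) <|
  Nat.bit (sbit (2 * B + 2 * C + D + E + F)) <|
  Nat.bit (sbit B) <|
  Nat.bit (sbit C) <|
  Nat.bit (sbit D) <|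
  Nat.bit (sbit E) <|
  Nat.bit (sbit F) 0

theorem bit_lt {b : Bool} {n k : ℕ} (h : n < k) : Nat.bit b n < 2 * k := by
  rw [Nat.bit_val]
  cases b <;> simp <;> omega

theorem suppMask_lt (A B C D E F : ℕ) : suppMask A B C D E F < 4096 := by
  have h : (0 : ℕ) < 1 := by norm_num
  exact bit_lt (bit_lt (bit_lt (bit_lt (bit_lt (bit_lt (bit_lt (bit_lt (bit_lt (bit_lt (bit_lt
    (bit_lt h)))))))))))

/-- The codeword with given values at the free positions. -/
def enc (A B C D E F : ℕ) : ArrayPt → ZMod 3 := fun p =>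
  (![![((2 * A + 2 * C + 2 * D + 2 * E + F : ℕ) : ZMod 3), ((2 * A + B + C + D + F : ℕ) : ZMod 3),
      ((2 * A + 2 * B + D + 2 * E + 2 * F : ℕ) : ZMod 3)],
    ![((A + B + 2 * C + D + 2 * E : ℕ) : ZMod 3), ((A + 2 * B + C + 2 * E + F : ℕ) : ZMod 3),
      (A : ZMod 3)],
    ![((2 * B + 2 * C + D + E + F : ℕ) : ZMod 3), (B : ZMod 3), (C : ZMod 3)],
    ![(D : ZMod 3), (E : ZMod 3), (F : ZMod 3)]] : Fin 4 → Fin 3 → ZMod 3) p.1 p.2

theorem enc_mem (A B C D E F : ℕ) : enc A B C D E F ∈ ternaryGolayCode := by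
  rw [mem_iff]
  refine ⟨?_, ?_, ?_, ?_, ?_, ?_⟩
  · change ((2 * A + 2 * C + 2 * D + 2 * E + F : ℕ) : ZMod 3) = 2 * (A : ZMod 3) + 2 * (C : ZMod 3) +
      2 * (D : ZMod 3) + 2 * (E : ZMod 3) + (F : ZMod 3)
    push_cast
    ring
  · change ((2 * A + B + C + D + F : ℕ) : ZMod 3) = 2 * (A : ZMod 3) + (B : ZMod 3) + (C : ZMod 3) +
      (D : ZMod 3) + (F : ZMod 3)
    push_cast
    ring
  · change ((2 * A + 2 * B + D + 2 * E + 2 * F : ℕ) : ZMod 3) = 2 * (A : ZMod 3) +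
      2 * (B : ZMod 3) + (D : ZMod 3) + 2 * (E : ZMod 3) + 2 * (F : ZMod 3)
    push_cast
    ring
  · change ((A + B + 2 * C + D + 2 * E : ℕ) : ZMod 3) = (A : ZMod 3) + (B : ZMod 3) +
      2 * (C : ZMod 3) + (D : ZMod 3) + 2 * (E : ZMod 3)
    push_cast
    ring
  · change ((A + 2 * B + C + 2 * E + F : ℕ) : ZMod 3) = (A : ZMod 3) + 2 * (B : ZMod 3) +
      (C : ZMod 3) + 2 * (E : ZMod 3) + (F : ZMod 3)
    push_cast
    ring
  · change ((2 * B + 2 * C + D + E + F : ℕ) : ZMod 3) = 2 * (B : ZMod 3) + 2 * (C : ZMod 3) +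
      (D : ZMod 3) + (E : ZMod 3) + (F : ZMod 3)
    push_cast
    ring

theorem exists_enc {x : ArrayPt → ZMod 3} (hx : x ∈ ternaryGolayCode) :
    ∃ A B C D E F : ℕ, A < 3 ∧ B < 3 ∧ C < 3 ∧ D < 3 ∧ E < 3 ∧ F < 3 ∧ x = enc A B C D E F := by
  refine ⟨(x (1, 2)).val, (x (2, 1)).val, (x (2, 2)).val, (x (3, 0)).val, (x (3, 1)).val,
    (x (3, 2)).val, ZMod.val_lt _, ZMod.val_lt _, ZMod.val_lt _, ZMod.val_lt _, ZMod.val_lt _,
    ZMod.val_lt _, ?_⟩
  have hc : ∀ z : ZMod 3, ((z.val : ℕ) : ZMod 3) = z := fun z => ZMod.natCast_zmod_val z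
  obtain ⟨a0, a1, a2, a3, a4, a6⟩ := (mem_iff x).1 hx
  obtain ⟨b0, b1, b2, b3, b4, b6⟩ := (mem_iff _).1 (enc_mem (x (1, 2)).val (x (2, 1)).val
    (x (2, 2)).val (x (3, 0)).val (x (3, 1)).val (x (3, 2)).val)
  have c5 : enc (x (1, 2)).val (x (2, 1)).val (x (2, 2)).val (x (3, 0)).val (x (3, 1)).val
    (x (3, 2)).val (1, 2) = x (1, 2) := hc _
  have c7 : enc (x (1, 2)).val (x (2, 1)).val (x (2, 2)).val (x (3, 0)).val (x (3, 1)).val
    (x (3, 2)).val (2, 1) = x (2, 1) := hc _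
  have c8 : enc (x (1, 2)).val (x (2, 1)).val (x (2, 2)).val (x (3, 0)).val (x (3, 1)).val
    (x (3, 2)).val (2, 2) = x (2, 2) := hc _
  have c9 : enc (x (1, 2)).val (x (2, 1)).val (x (2, 2)).val (x (3, 0)).val (x (3, 1)).val
    (x (3, 2)).val (3, 0) = x (3, 0) := hc _
  have c10 : enc (x (1, 2)).val (x (2, 1)).val (x (2, 2)).val (x (3, 0)).val (x (3, 1)).val
    (x (3, 2)).val (3, 1) = x (3, 1) := hc _
  have c11 : enc (x (1, 2)).val (x (2, 1)).val (x (2, 2)).val (x (3, 0)).val (x (3, 1)).val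
    (x (3, 2)).val (3, 2) = x (3, 2) := hc _
  funext p
  revert p
  refine forall_pt ⟨?_, ?_, ?_, ?_, ?_, ?_, ?_, ?_, ?_, ?_, ?_, ?_⟩
  · rw [a0, b0, c5, c8, c9, c10, c11]
  · rw [a1, b1, c5, c7, c8, c9, c11]
  · rw [a2, b2, c5, c7, c9, c10, c11]
  · rw [a3, b3, c5, c7, c8, c9, c10]
  · rw [a4, b4, c5, c7, c8, c10, c11]
  · exact c5.symm
  · rw [a6, b6, c7, c8, c9, c10, c11]
  · exact c7.symm
  · exact c8.symm
  · exact c9.symm
  · exact c10.symm
  · exact c11.symm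

theorem support_enc (A B C D E F : ℕ) :
    ternarySupport (enc A B C D E F) = ofMask (suppMask A B C D E F) := by
  ext p
  rw [mem_ofMask]
  have h0 : p ∈ ternarySupport (enc A B C D E F) ↔ enc A B C D E F p ≠ 0 := by
    simp [ternarySupport]
  rw [h0]
  clear h0
  revert p
  have hz : ∀ (b : Bool) (n : ℕ), (Nat.bit b n).testBit 0 = b := Nat.testBit_bit_zero
  have hs : ∀ (b : Bool) (n k : ℕ), (Nat.bit b n).testBit (k + 1) = n.testBit k := fun b n k =>
    Nat.testBit_bit_succ k b n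
  refine forall_pt ⟨?_, ?_, ?_, ?_, ?_, ?_, ?_, ?_, ?_, ?_, ?_, ?_⟩
  · change ((2 * A + 2 * C + 2 * D + 2 * E + F : ℕ) : ZMod 3) ≠ 0 ↔ (suppMask A B C D E F).testBit 0 = true
    rw [suppMask, hz, sbit_iff]
  · change ((2 * A + B + C + D + F : ℕ) : ZMod 3) ≠ 0 ↔ (suppMask A B C D E F).testBit 1 = true
    rw [suppMask, hs, hz, sbit_iff]
  · change ((2 * A + 2 * B + D + 2 * E + 2 * F : ℕ) : ZMod 3) ≠ 0 ↔ (suppMask A B C D E F).testBit 2 = true
    rw [suppMask, hs, hs, hz, sbit_iff]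
  · change ((A + B + 2 * C + D + 2 * E : ℕ) : ZMod 3) ≠ 0 ↔ (suppMask A B C D E F).testBit 3 = true
    rw [suppMask, hs, hs, hs, hz, sbit_iff]
  · change ((A + 2 * B + C + 2 * E + F : ℕ) : ZMod 3) ≠ 0 ↔ (suppMask A B C D E F).testBit 4 = true
    rw [suppMask, hs, hs, hs, hs, hz, sbit_iff]
  · change ((A : ℕ) : ZMod 3) ≠ 0 ↔ (suppMask A B C D E F).testBit 5 = true
    rw [suppMask, hs, hs, hs, hs, hs, hz, sbit_iff]
  · change ((2 * B + 2 * C + D + E + F : ℕ) : ZMod 3) ≠ 0 ↔ (suppMask A B C D E F).testBit 6 = true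
    rw [suppMask, hs, hs, hs, hs, hs, hs, hz, sbit_iff]
  · change ((B : ℕ) : ZMod 3) ≠ 0 ↔ (suppMask A B C D E F).testBit 7 = true
    rw [suppMask, hs, hs, hs, hs, hs, hs, hs, hz, sbit_iff]
  · change ((C : ℕ) : ZMod 3) ≠ 0 ↔ (suppMask A B C D E F).testBit 8 = true
    rw [suppMask, hs, hs, hs, hs, hs, hs, hs, hs, hz, sbit_iff]
  · change ((D : ℕ) : ZMod 3) ≠ 0 ↔ (suppMask A B C D E F).testBit 9 = true
    rw [suppMask, hs, hs, hs, hs, hs, hs, hs, hs, hs, hz, sbit_iff]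
  · change ((E : ℕ) : ZMod 3) ≠ 0 ↔ (suppMask A B C D E F).testBit 10 = true
    rw [suppMask, hs, hs, hs, hs, hs, hs, hs, hs, hs, hs, hz, sbit_iff]
  · change ((F : ℕ) : ZMod 3) ≠ 0 ↔ (suppMask A B C D E F).testBit 11 = true
    rw [suppMask, hs, hs, hs, hs, hs, hs, hs, hs, hs, hs, hs, hz, sbit_iff]

/-- The masks of the 132 hexads. -/
def hexMasks : List ℕ := [
    63, 222, 237, 243, 347, 366, 373, 413, 427, 438, 455, 504, 591, 630, 633, 667, 679, 700,
    725, 746, 791, 813, 826, 860, 867, 910, 945, 969, 978, 996, 1117, 1127, 1146, 1175, 1198,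
    1209, 1227, 1268, 1295, 1331, 1340, 1366, 1385, 1434, 1445, 1484, 1489, 1506, 1566, 1579,
    1589, 1619, 1644, 1677, 1714, 1734, 1752, 1761, 1817, 1830, 1861, 1866, 1904, 1923, 1940,
    1960, 2135, 2155, 2172, 2191, 2229, 2234, 2265, 2278, 2334, 2343, 2361, 2381, 2418, 2451,
    2476, 2506, 2516, 2529, 2589, 2606, 2611, 2650, 2661, 2710, 2729, 2755, 2764, 2800, 2827,
    2868, 2886, 2897, 2920, 2949, 2968, 2978, 3099, 3117, 3126, 3150, 3185, 3228, 3235, 3269,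
    3282, 3304, 3349, 3370, 3395, 3416, 3428, 3462, 3465, 3504, 3591, 3640, 3657, 3668, 3682,
    3722, 3729, 3748, 3852, 3858, 3873, 4032]

/-- For each hexad mask, a codeword (base-3 digits of the number) with this support. -/
def hexWits : List ℕ := [
    1, 3, 4, 7, 9, 19, 10, 21, 16, 22, 12, 25, 27, 55, 28, 30, 31, 61, 57, 58, 36, 73, 37, 63,
    46, 66, 67, 39, 48, 43, 81, 82, 163, 84, 169, 85, 165, 166, 90, 181, 91, 171, 172, 174, 106,
    102, 183, 94, 189, 136, 190, 108, 109, 219, 115, 192, 138, 223, 225, 226, 144, 117, 154,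
    156, 120, 211, 243, 487, 244, 246, 493, 247, 489, 250, 252, 253, 505, 495, 496, 498, 499,
    507, 255, 265, 513, 514, 298, 270, 541, 543, 277, 300, 273, 517, 549, 289, 522, 279, 307,
    534, 318, 565, 567, 406, 568, 324, 325, 651, 652, 570, 327, 574, 657, 343, 414, 576, 667,
    426, 336, 421, 351, 703, 675, 594, 433, 597, 435, 382, 441, 387, 604, 714]

theorem hexMasks_length : hexMasks.length = 132 := by decide +kernel

theorem hexMasks_nodup : hexMasks.Nodup := by decide +kernel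

theorem hexMasks_lt : ∀ m ∈ hexMasks, m < 4096 := by decide +kernel

theorem hexMasks_popc : ∀ m ∈ hexMasks, popc m = 6 := by decide +kernel

theorem hexWits_spec : hexWits.map (fun n => suppMask (n % 3) (n / 3 % 3) (n / 9 % 3) (n / 27 % 3)
    (n / 81 % 3) (n / 243 % 3)) = hexMasks := by decide +kernel

theorem suppMask_mem_aux : ∀ n < 729, popc (suppMask (n % 3) (n / 3 % 3) (n / 9 % 3)
    (n / 27 % 3) (n / 81 % 3) (n / 243 % 3)) = 6 → suppMask (n % 3) (n / 3 % 3) (n / 9 % 3)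
    (n / 27 % 3) (n / 81 % 3) (n / 243 % 3) ∈ hexMasks := by
  decide +kernel

theorem suppMask_mem (A : ℕ) (hA : A < 3) (B : ℕ) (hB : B < 3) (C : ℕ) (hC : C < 3) (D : ℕ)
    (hD : D < 3) (E : ℕ) (hE : E < 3) (F : ℕ) (hF : F < 3)
    (h : popc (suppMask A B C D E F) = 6) : suppMask A B C D E F ∈ hexMasks := by
  have h0 := suppMask_mem_aux (A + 3 * B + 9 * C + 27 * D + 81 * E + 243 * F) (by omega)
  have h1 : (A + 3 * B + 9 * C + 27 * D + 81 * E + 243 * F) % 3 = A := by omega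
  have h2 : (A + 3 * B + 9 * C + 27 * D + 81 * E + 243 * F) / 3 % 3 = B := by omega
  have h3 : (A + 3 * B + 9 * C + 27 * D + 81 * E + 243 * F) / 9 % 3 = C := by omega
  have h4 : (A + 3 * B + 9 * C + 27 * D + 81 * E + 243 * F) / 27 % 3 = D := by omega
  have h5 : (A + 3 * B + 9 * C + 27 * D + 81 * E + 243 * F) / 81 % 3 = E := by omega
  have h6 : (A + 3 * B + 9 * C + 27 * D + 81 * E + 243 * F) / 243 % 3 = F := by omega
  rw [h1, h2, h3, h4, h5, h6] at h0
  exact h0 h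

/-- The hexads: supports of the words of weight six. -/
theorem hexads_eq : {h : Finset ArrayPt | ∃ x ∈ ternaryGolayCode, ternarySupport x = h ∧
    h.card = 6} = ofMask '' {m | m ∈ hexMasks} := by
  ext h
  constructor
  · rintro ⟨x, hx, rfl, hc⟩
    obtain ⟨A, B, C, D, E, F, hA, hB, hC, hD, hE, hF, rfl⟩ := exists_enc hx
    rw [support_enc] at hc ⊢
    rw [card_ofMask] at hc
    exact ⟨_, suppMask_mem A hA B hB C hC D hD E hE F hF hc, rfl⟩
  · rintro ⟨m, hm, rfl⟩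
    have hm' : m ∈ hexMasks := hm
    have hp := hexMasks_popc m hm'
    rw [← hexWits_spec, List.mem_map] at hm'
    obtain ⟨n, -, hn⟩ := hm'
    refine ⟨_, enc_mem (n % 3) (n / 3 % 3) (n / 9 % 3) (n / 27 % 3) (n / 81 % 3) (n / 243 % 3),
      ?_, ?_⟩
    · rw [support_enc, hn]
    · rw [card_ofMask, hp]

end Cfsg.Agent.TernaryGolay.Masks
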